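import Cfsg.Agent.Blocks.Defect.DefectGroups

/-!
# Idempotents and sums over cosets of a `p`-subgroup

A nonzero idempotent of `k G` fixed by a `p`-subgroup `R` has a left coset of `R` over which its
coefficients do not sum to zero; hence its support contains an element `g` such that
`R ∩ g R g⁻¹` centralizes `g`.  This is the elementary core of Green's theorem on defect groups
as intersections of two Sylow subgroups.
-/

set_option autoImplicit false
open scoped MonoidAlgebra
open MonoidAlgebra (single)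

namespace CfsgLib.Blocks

variable {k : Type*} [Field k] {G : Type*} [Group G] [Finite G] {p : ℕ} [Fact p.Prime] [CharP k p]

theorem exists_coset_sum_ne_zero {R : Subgroup G} (hR : IsPGroup p R) [Fintype R] {b : k[G]}
    (hbb : b * b = b) (hb0 : b ≠ 0) (hfix : IsFixedBy b R) :
    ∃ c : G, ∑ r : R, b.coeff (c * r) ≠ 0 := by
  classical
  haveI := Fintype.ofFinite G
  by_contra hcon
  simp only [not_exists, not_not] at hcon
  letI : DistribMulAction R k[G] :=
    DistribMulAction.compHom k[G] ((MonoidAlgebra.of k G).comp R.subtype)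
  have hsmul : ∀ (u : R) (x : k[G]), u • x = single (u : G) (1 : k) * x := fun _ _ => rfl
  have hp0 : ∀ x : k[G], p • x = 0 := fun x => by
    rw [← Nat.cast_smul_eq_nsmul k, CharP.cast_eq_zero k p, zero_smul]
  obtain ⟨v, hv0, hvfix, hvmem⟩ := exists_fixed_ne_zero hR hp0 hb0
  have hbv : b * v = v := by
    clear hvfix hv0
    induction hvmem using AddSubgroup.closure_induction with
    | mem x hx =>
      obtain ⟨u, rfl⟩ := hx
      simp only [hsmul]
      rw [← mul_assoc, ← (isFixedBy_iff_commute.mp hfix u u.2).eq, mul_assoc, hbb]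
    | zero => exact mul_zero b
    | add x y _ _ hx hy => rw [mul_add, hx, hy]
    | neg x _ hx => rw [mul_neg, hx]
  apply hv0
  rw [← hbv]
  refine MonoidAlgebra.ext (Finsupp.ext fun h => ?_)
  rw [MonoidAlgebra.coeff_mul_apply_left, Finsupp.sum_fintype _ _ (fun _ => zero_mul _)]
  have hf : ∀ (x : G) (r : R), v.coeff ((x * r)⁻¹ * h) = v.coeff (x⁻¹ * h) := by
    intro x r
    have h1 := congrArg (fun a : k[G] => a.coeff ((r⁻¹ : R) * (x⁻¹ * h))) (hvfix r⁻¹)
    simp only [hsmul] at h1
    rw [MonoidAlgebra.single_mul_apply, one_mul, inv_mul_cancel_left] at h1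
    rw [mul_inv_rev, mul_assoc, h1]
    simp
  show ∑ x : G, b.coeff x * v.coeff (x⁻¹ * h) = 0
  rw [← Finset.sum_fiberwise Finset.univ (fun x : G => (QuotientGroup.mk x : G ⧸ R))]
  refine Finset.sum_eq_zero fun q _ => ?_
  have hq : ∑ x ∈ Finset.univ.filter (fun x : G => (QuotientGroup.mk x : G ⧸ R) = q),
      b.coeff x * v.coeff (x⁻¹ * h) =
      ∑ r : R, b.coeff (q.out * r) * v.coeff ((q.out)⁻¹ * h) := by
    symm
    refine Finset.sum_bij (fun r _ => q.out * (r : G)) ?_ ?_ ?_ ?_
    · intro r _
      simp only [Finset.mem_filter, Finset.mem_univ, true_and]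
      conv_rhs => rw [← q.out_eq']
      exact QuotientGroup.eq.mpr (by simp)
    · intro r _ s _ he
      exact Subtype.ext (mul_left_cancel he)
    · intro x hx
      simp only [Finset.mem_filter, Finset.mem_univ, true_and] at hx
      refine ⟨⟨q.out⁻¹ * x, QuotientGroup.eq.mp (q.out_eq'.trans hx.symm)⟩, Finset.mem_univ _, ?_⟩
      simp
    · intro r _
      rw [hf]
  rw [hq, ← Finset.sum_mul, hcon, zero_mul]

/-- Some element `g` of the support has `R ∩ g R g⁻¹` inside its centralizer. -/
theorem exists_coeff_ne_zero_inf_conj_le {R : Subgroup G} (hR : IsPGroup p R) {b : k[G]}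
    (hbb : b * b = b) (hb0 : b ≠ 0) (hfix : IsFixedBy b R) :
    ∃ g : G, b.coeff g ≠ 0 ∧
      R ⊓ R.map (MulAut.conj g).toMonoidHom ≤ Subgroup.centralizer ({g} : Set G) := by
  classical
  haveI := Fintype.ofFinite R
  obtain ⟨c, hc⟩ := exists_coset_sum_ne_zero hR hbb hb0 hfix
  by_contra hcon
  simp only [not_exists, not_and] at hcon
  apply hc
  set A := R ⊓ R.map (MulAut.conj c).toMonoidHom with hA
  have hmem : ∀ (q : A) (r : R), c⁻¹ * (q : G) * c * (r : G) * (q : G)⁻¹ ∈ R := by
    intro q r
    obtain ⟨hq1, s, hs, hsq⟩ := q.2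
    have : c⁻¹ * (q : G) * c = s := by rw [← hsq]; simp [mul_assoc]
    rw [this]
    exact R.mul_mem (R.mul_mem hs r.2) (R.inv_mem hq1)
  letI : MulAction A R :=
    { smul := fun q r => ⟨_, hmem q r⟩
      one_smul := fun r => Subtype.ext (by
        show c⁻¹ * ((1 : A) : G) * c * (r : G) * ((1 : A) : G)⁻¹ = r
        simp)
      mul_smul := fun q q' r => Subtype.ext (by
        show c⁻¹ * ((q * q' : A) : G) * c * (r : G) * ((q * q' : A) : G)⁻¹ =
          c⁻¹ * (q : G) * c * (c⁻¹ * (q' : G) * c * (r : G) * (q' : G)⁻¹) * (q : G)⁻¹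
        simp only [Subgroup.coe_mul]
        group) }
  have hsmul : ∀ (q : A) (r : R),
      c * ((q • r : R) : G) = (q : G) * (c * (r : G)) * (q : G)⁻¹ := by
    intro q r
    show c * (c⁻¹ * (q : G) * c * (r : G) * (q : G)⁻¹) = _
    group
  refine sum_eq_zero_of_invariant (P := A) (hR.to_le inf_le_left) (fun r : R => b.coeff (c * r)) ?_ ?_
  · intro q r
    simp only [hsmul]
    exact hfix q q.2.1 _
  · intro r hr
    by_contra hne
    refine hcon _ hne fun y hy => ?_
    have hy' : y ∈ A := by
      obtain ⟨h1, s, hs, hsy⟩ := hy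
      refine ⟨h1, (r : G) * s * (r : G)⁻¹, R.mul_mem (R.mul_mem r.2 hs) (R.inv_mem r.2), ?_⟩
      rw [← hsy]
      simp [mul_assoc]
    have := congrArg (fun t : R => c * (t : G)) (hr ⟨y, hy'⟩)
    simp only [hsmul] at this
    rw [mem_centralizer_singleton']
    calc y * (c * r) = y * (c * r) * y⁻¹ * y := by group
      _ = c * r * y := by rw [this]

end CfsgLib.Blocks
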