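import Cfsg.Agent.Blocks.Defect.OrbitBlock
import Cfsg.Agent.Blocks.Defect.SubgroupTransport

/-!
# Covering inside a subgroup

For `L` normal in a subgroup `H` a block of `H` covers a block of `L` exactly when its idempotent
does not kill that of the block.
-/

set_option autoImplicit false
open scoped MonoidAlgebra
open MonoidAlgebra (single)
open Cfsg

namespace CfsgLib.Blocks

variable {M : Ideal AlgInt} [hM : M.IsMaximal] {G : Type*} [Group G] [Fintype G]

/-- Covering inside a subgroup, in terms of idempotents. -/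
theorem covers_sub_iff {H L : Subgroup G} (hLH : L ≤ H) [Fintype L] [(L.subgroupOf H).Normal]
    {c : Set (IrrCharacter H)} (hc : IsPBlock M c) {e : Set (IrrCharacter L)} (he : IsPBlock M e) :
    (∃ ψ ∈ c, ∃ ξ ∈ e, classInner (fun l : L => (ψ : H → ℂ) (Subgroup.inclusion hLH l))
      (ξ : L → ℂ) ≠ 0) ↔ subEl M H c * subEl M L e ≠ 0 := by
  classical
  have : Fintype H := Fintype.ofFinite _
  have : Fintype (L.subgroupOf H) := Fintype.ofFinite _
  set φ : L ≃* L.subgroupOf H := (Subgroup.subgroupOfEquivOfLe hLH).symm with hφ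
  have he' : IsPBlock M (mapBlock φ e) := isPBlock_mapBlock φ he
  have h1 : subEl M L e = emb (kres M) H.subtype (subEl M (L.subgroupOf H) (mapBlock φ e)) := by
    rw [subEl, subEl, ← blockEl_mapBlock (M := M) (f := L.subtype)
      (f' := H.subtype.comp (L.subgroupOf H).subtype) φ L.subtype_injective
      (H.subtype_injective.comp (L.subgroupOf H).subtype_injective) (fun _ => rfl) e, blockEl,
      blockEl, ← emb_comp]
  have h2 : subEl M H c = emb (kres M) H.subtype (topEl M c) := blockEl_eq_emb_topEl c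
  have hinner : ∀ (ψ : IrrCharacter H) (ξ : IrrCharacter L),
      classInner (fun n : L.subgroupOf H => (ψ : H → ℂ) n)
        (CfsgLib.Chars.irrEquiv φ ξ : L.subgroupOf H → ℂ) =
      classInner (fun l : L => (ψ : H → ℂ) (Subgroup.inclusion hLH l)) (ξ : L → ℂ) := by
    intro ψ ξ
    rw [classInner, classInner, Nat.card_congr φ.toEquiv]
    congr 1
    refine (Fintype.sum_equiv φ.toEquiv _ _ fun l => ?_).symm
    rw [CfsgLib.Chars.irrEquiv_apply, MulEquiv.toEquiv_eq_coe, EquivLike.coe_coe,
      MulEquiv.symm_apply_apply]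
    rfl
  rw [h1, h2, ← map_mul, Ne, map_eq_zero_iff _ (emb_injective H.subtype_injective)]
  constructor
  · rintro ⟨ψ, hψ, ξ, hξ, h⟩
    exact topEl_mul_subEl_ne_zero hc he' hψ (Set.mem_image_of_mem _ hξ) (by rwa [hinner])
  · intro h
    obtain ⟨ψ, hψ, _, ⟨ξ, hξ, rfl⟩, h'⟩ := covers_of_mul_ne_zero hc he' h
    exact ⟨ψ, hψ, ξ, hξ, by rwa [← hinner]⟩

end CfsgLib.Blocks
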