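import Cfsg.Agent.Blocks.Defect.Covered
import Cfsg.Agent.Blocks.Defect.LocalStructure

/-!
# The Harris–Knörr correspondence on idempotents

For a block `d` of a normal subgroup `N` with defect group `Q` and `H = N(Q)`, `e = Br_Q d`, the
Brauer map at `Q` matches the blocks of `H` not killing `e` with the blocks of the group not
killing `d`.
-/

set_option autoImplicit false
open scoped MonoidAlgebra
open MonoidAlgebra (single)

namespace CfsgLib.Blocks

variable {k : Type*} [Field k] {G : Type*} [Group G] [Finite G] {p : ℕ}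
  {N Q : Subgroup G} {d : k[G]}

/-- Two members of the support of `y` conjugate under `N` are conjugate under the normalizer. -/
theorem coeff_eq_of_conj_of_sylow {y : k[G]}
    (hfix : IsFixedBy y (N ⊓ Subgroup.normalizer (Q : Set G))) {x t m : G}
    (hx : IsSylowIn p Q (N ⊓ Subgroup.centralizer ({x} : Set G))) (hm : m ∈ N)
    (hxt : m * x * m⁻¹ = t) (ht : t ∈ Subgroup.centralizer (Q : Set G)) :
    y.coeff t = y.coeff x := by
  obtain ⟨n, hn, rfl⟩ := exists_normalizer_conj hx (hx.1.trans inf_le_left) hm hxt ht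
  exact hfix n hn x

/-- An element fixed by the normalizer in `N` with support of defect exactly `Q` is the truncation
of one fixed by `N`, keeping the symmetries. -/
theorem exists_lift [N.Normal] {y : k[G]}
    (hsupp : IsSupportedOn y (Subgroup.centralizer (Q : Set G)))
    (hfix : IsFixedBy y (N ⊓ Subgroup.normalizer (Q : Set G)))
    (hgood : ∀ t, y.coeff t ≠ 0 → IsSylowIn p Q (N ⊓ Subgroup.centralizer ({t} : Set G))) :
    ∃ a : k[G], brTrunc Q a = y ∧ IsFixedBy a N ∧ ∀ h : G, conjA h y = y → conjA h a = a := by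
  classical
  let A : G → k := fun g =>
    if hg : ∃ n ∈ N, y.coeff (n * g * n⁻¹) ≠ 0 then y.coeff (hg.choose * g * hg.choose⁻¹) else 0
  have hA : ∀ g n, n ∈ N → y.coeff (n * g * n⁻¹) ≠ 0 → A g = y.coeff (n * g * n⁻¹) := by
    intro g n hn hne
    have hex : ∃ n ∈ N, y.coeff (n * g * n⁻¹) ≠ 0 := ⟨n, hn, hne⟩
    simp only [A, dif_pos hex]
    obtain ⟨h1, h2⟩ := hex.choose_spec
    refine coeff_eq_of_conj_of_sylow hfix (hgood _ hne) (N.mul_mem h1 (N.inv_mem hn)) (by group) ?_
    exact by_contra fun h => h2 (hsupp _ h)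
  have hA0 : ∀ g, (∀ n ∈ N, y.coeff (n * g * n⁻¹) = 0) → A g = 0 := by
    intro g hg
    simp only [A]
    rw [dif_neg]
    rintro ⟨n, hn, hne⟩
    exact hne (hg n hn)
  refine ⟨MonoidAlgebra.ofCoeff (Finsupp.equivFunOnFinite.symm A), ?_, ?_, ?_⟩
  · refine MonoidAlgebra.ext (Finsupp.ext fun t => ?_)
    by_cases ht : t ∈ Subgroup.centralizer (Q : Set G)
    · rw [coeff_brTrunc_of_mem _ ht]
      show A t = y.coeff t
      by_cases hex : ∃ n ∈ N, y.coeff (n * t * n⁻¹) ≠ 0
      · obtain ⟨n, hn, hne⟩ := hex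
        rw [hA t n hn hne]
        exact (coeff_eq_of_conj_of_sylow hfix (hgood _ hne) (N.inv_mem hn) (by group) ht).symm
      · simp only [not_exists, not_and, not_not] at hex
        rw [hA0 t hex]
        simpa using (hex 1 N.one_mem).symm
    · rw [coeff_brTrunc_of_not_mem _ ht, hsupp t ht]
  · intro s hs g
    show A (s * g * s⁻¹) = A g
    by_cases hex : ∃ n ∈ N, y.coeff (n * (s * g * s⁻¹) * n⁻¹) ≠ 0
    · obtain ⟨n, hn, hne⟩ := hex
      rw [hA _ n hn hne]
      have he : n * (s * g * s⁻¹) * n⁻¹ = n * s * g * (n * s)⁻¹ := by group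
      rw [he] at hne ⊢
      exact (hA g (n * s) (N.mul_mem hn hs) hne).symm
    · simp only [not_exists, not_and, not_not] at hex
      rw [hA0 _ hex]
      refine (hA0 g fun n hn => ?_).symm
      have := hex (n * s⁻¹) (N.mul_mem hn (N.inv_mem hs))
      convert this using 2
      group
  · intro h hh
    have hy : ∀ g, y.coeff (h⁻¹ * g * h) = y.coeff g := fun g => by
      conv_rhs => rw [← hh]
      rw [coeff_conjA]
    refine MonoidAlgebra.ext (Finsupp.ext fun g => ?_)
    rw [coeff_conjA]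
    show A (h⁻¹ * g * h) = A g
    have hNn : ∀ n ∈ N, h⁻¹ * n * h ∈ N := fun n hn => by
      have := (inferInstance : N.Normal).conj_mem n hn h⁻¹
      rwa [inv_inv] at this
    have hNn' : ∀ n ∈ N, h * n * h⁻¹ ∈ N := fun n hn =>
      (inferInstance : N.Normal).conj_mem n hn h
    by_cases hex : ∃ n ∈ N, y.coeff (n * g * n⁻¹) ≠ 0
    · obtain ⟨n, hn, hne⟩ := hex
      rw [hA g n hn hne]
      have he : h⁻¹ * n * h * (h⁻¹ * g * h) * (h⁻¹ * n * h)⁻¹ = h⁻¹ * (n * g * n⁻¹) * h := by group
      rw [hA (h⁻¹ * g * h) (h⁻¹ * n * h) (hNn n hn) (by rwa [he, hy]), he, hy]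
    · simp only [not_exists, not_and, not_not] at hex
      rw [hA0 g hex]
      refine hA0 _ fun n hn => ?_
      have := hex (h * n * h⁻¹) (hNn' n hn)
      rw [← hy] at this
      convert this using 2
      group

variable [Fact p.Prime] [CharP k p]

/-- A conjugate of `d` kept by the Brauer map is a conjugate under the normalizer of `Q`. -/
theorem exists_mem_normalizer_conjA [N.Normal] (hd : IsBlockIdem N d)
    (hQ : IsDefectGroupIdem p N d Q) {x : G} (hne : brTrunc Q (conjA x d) ≠ 0) :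
    ∃ h ∈ Subgroup.normalizer (Q : Set G), h * x ∈ N ∧ conjA x d = conjA h⁻¹ d := by
  have hne' : brTrunc (Q.map (MulAut.conj x⁻¹).toMonoidHom) d ≠ 0 := by
    intro h0
    apply hne
    have h := conjA_brTrunc x (Q.map (MulAut.conj x⁻¹).toMonoidHom) d
    rw [map_conj_map_conj, mul_inv_cancel, map_conj_one, h0, map_zero] at h
    exact h.symm
  obtain ⟨n, hn, hle⟩ := hQ.2.2.2 _ (by
    rintro _ ⟨r, hr, rfl⟩
    exact (inferInstance : N.Normal).conj_mem r (hQ.1 hr) x⁻¹) (hQ.2.1.map _) hne'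
  rw [map_conj_map_conj] at hle
  refine ⟨n * x⁻¹, mem_normalizer_of_map_conj_le hle, by simpa [mul_assoc] using hn, ?_⟩
  have hfix := isFixedBy_iff_conjA.mp hd.1.2 n⁻¹ (N.inv_mem hn)
  conv_lhs => rw [← hfix]
  rw [conjA_conjA]
  congr 2
  group

/-- The normalizer of `Q` conjugates `Br_Q d` as it conjugates `d`. -/
theorem conjA_brTrunc_of_mem_normalizer {h : G} (hh : h ∈ Subgroup.normalizer (Q : Set G))
    (a : k[G]) : conjA h (brTrunc Q a) = brTrunc Q (conjA h a) := by
  rw [conjA_brTrunc, map_conj_eq_self_of_mem_normalizer hh]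

omit [Finite G] [Fact p.Prime] in
/-- The setting of the Brauer map from `G` to the normalizer of `Q`. -/
theorem brSetting_top_normalizer (hQ : IsPGroup p Q) :
    BrSetting p ⊤ Q (Subgroup.normalizer (Q : Set G)) :=
  ⟨hQ, le_top, inf_le_right.trans (Subgroup.centralizer_le_normalizer _), le_top, le_rfl⟩

omit [Finite G] in
/-- `Br_Q d` commutes with the elements fixed by the centralizer of `Q`. -/
theorem commute_brTrunc_of_fixed {c : k[G]} (hc : IsFixedBy c (Subgroup.centralizer (Q : Set G)))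
    (a : k[G]) : Commute (brTrunc Q a) c :=
  commute_of_isFixedBy (isSupportedOn_brTrunc Q a) hc

/-- A block over a block of the normalizer not killing `Br_Q d` does not kill `d`. -/
theorem mul_ne_zero_of_over (hd : IsBlockIdem N d) (hQ : IsDefectGroupIdem p N d Q) {c E : k[G]}
    (hc : IsBlockIdem (Subgroup.normalizer (Q : Set G)) c)
    (hE : IsBlockIdem ⊤ E) (ho : BrOver Q c E) (hce : c * brTrunc Q d ≠ 0) : E * d ≠ 0 := by
  intro h0
  apply hce
  rw [← ho, mul_assoc,
    ← (commute_brTrunc_of_fixed (hc.1.2.mono (Subgroup.centralizer_le_normalizer _)) d).eq,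
    ← mul_assoc, ← brTrunc_mul hQ.2.1 (hE.1.2.mono le_top) (hd.1.2.mono hQ.1), h0, map_zero,
    zero_mul]

/-- A block not killing `d` lies under a block of the normalizer not killing `Br_Q d`. -/
theorem exists_over_of_mul_ne_zero [N.Normal] (hd : IsBlockIdem N d)
    (hQ : IsDefectGroupIdem p N d Q) {E : k[G]} (hE : IsBlockIdem ⊤ E) (hEd : E * d ≠ 0) :
    ∃ c, IsBlockIdem (Subgroup.normalizer (Q : Set G)) c ∧ c * brTrunc Q d ≠ 0 ∧
      BrOver Q c E := by
  classical
  have S := brSetting_top_normalizer hQ.2.1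
  have hNn : (⊤ : Subgroup G) ≤ Subgroup.normalizer (N : Set G) :=
    (Subgroup.normalizer_eq_top_iff.mpr inferInstance).ge
  have hne : brTrunc Q E ≠ 0 :=
    brTrunc_ne_zero_of_covers hd hQ.2.1 hQ.1 hQ.2.2.1 hE.1 hE.idem hEd
  have hkey : brTrunc Q E * brTrunc Q d ≠ 0 := by
    intro h0
    apply hne
    rw [← mul_orbitSum_eq_self le_top hNn hd hE hEd, orbitSum, Finset.sum_mul, map_sum]
    refine Finset.sum_eq_zero fun f hf => ?_
    have hfN := isBlockIdem_of_mem_conjOrbit hNn hd hf
    rw [(commute_of_isFixedBy hfN.1.1 (hE.1.2.mono le_top)).eq,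
      brTrunc_mul hQ.2.1 (hE.1.2.mono le_top) (hfN.1.2.mono hQ.1)]
    by_cases hfQ : brTrunc Q f = 0
    · rw [hfQ, mul_zero]
    obtain ⟨x, -, rfl⟩ := mem_conjOrbit.mp hf
    obtain ⟨h, hh, -, hx⟩ := exists_mem_normalizer_conjA hd hQ hfQ
    have hh' := Subgroup.inv_mem _ hh
    rw [hx, ← conjA_brTrunc_of_mem_normalizer hh',
      ← isFixedBy_iff_conjA.mp (S.trunc_mem hE.1).2 h⁻¹ hh', ← map_mul, h0, map_zero]
  obtain ⟨c, hc, hcne⟩ := exists_block_mul_ne_zero (H := Subgroup.normalizer (Q : Set G)) hkey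
  rw [← mul_assoc, (commute_centerIn hc.1 (S.trunc_mem hE.1)).eq] at hcne
  have hne' : brTrunc Q E * c ≠ 0 := fun h => hcne (by rw [h, zero_mul])
  have ho : BrOver Q c E :=
    (hc.2.2.2 _ (S.trunc_mem hE.1) (S.trunc_idem hE.1 hE.idem)).resolve_left hne'
  have ho' : brTrunc Q E * c = c := ho
  rw [ho'] at hcne
  exact ⟨c, hc, hcne, ho⟩

/-- The product of a central element of the normalizer with `Br_Q d` has support of defect `Q`. -/
theorem sylow_of_coeff_mul_brTrunc (hQ : IsDefectGroupIdem p N d Q) (hd : IsBlockIdem N d)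
    {c : k[G]} (hc : IsFixedBy c (Subgroup.normalizer (Q : Set G)))
    (hcs : IsSupportedOn c (Subgroup.centralizer (Q : Set G))) {t : G}
    (ht : (c * brTrunc Q d).coeff t ≠ 0) :
    IsSylowIn p Q (N ⊓ Subgroup.centralizer ({t} : Set G)) := by
  have hblock := hQ.trunc_isBlockIdem hd
  have htC : t ∈ Subgroup.centralizer (Q : Set G) :=
    by_contra fun h => ht (hcs.mul (isSupportedOn_brTrunc Q d) t h)
  rw [← isSylowIn_inf_normalizer_iff]
  refine ⟨le_inf (le_inf hQ.1 Subgroup.le_normalizer) (le_centralizer_singleton_of_mem htC),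
    hQ.2.1, fun R hR hRp => ⟨1, Subgroup.one_mem _, ?_⟩⟩
  rw [map_conj_one]
  have hRN : R ≤ N := hR.trans (inf_le_left.trans inf_le_left)
  have hRQ : R ≤ Subgroup.normalizer (Q : Set G) := hR.trans (inf_le_left.trans inf_le_right)
  set R' := R ⊔ Q with hR'
  have hR'p : IsPGroup p R' := IsPGroup.to_sup_of_normal_right' hRp hQ.2.1 hRQ
  have hR'L : R' ≤ N ⊓ Subgroup.normalizer (Q : Set G) :=
    sup_le (hR.trans inf_le_left) (le_inf hQ.1 Subgroup.le_normalizer)
  have hne : brTrunc R' d ≠ 0 := by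
    intro h0
    apply brTrunc_ne_zero_of_coeff ht
      (sup_le (hR.trans inf_le_right) (le_centralizer_singleton_of_mem htC) :
        R' ≤ Subgroup.centralizer ({t} : Set G))
    rw [brTrunc_mul hR'p (hc.mono (hR'L.trans inf_le_right))
      (hblock.1.2.mono hR'L), brTrunc_brTrunc le_sup_right, h0, mul_zero]
  obtain ⟨n, -, hle⟩ := hQ.2.2.2 R' (hR'L.trans inf_le_left) hR'p hne
  have hcard := Subgroup.card_le_of_le hle
  rw [card_map_conj] at hcard
  exact le_sup_left.trans (Subgroup.eq_of_le_of_card_ge (le_sup_right : Q ≤ R') hcard).ge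

/-- The blocks of the normalizer not killing `Br_Q d` lie over distinct blocks. -/
theorem eq_of_over [N.Normal] (hd : IsBlockIdem N d) (hQ : IsDefectGroupIdem p N d Q)
    {c c' E : k[G]} (hc : IsBlockIdem (Subgroup.normalizer (Q : Set G)) c)
    (hc' : IsBlockIdem (Subgroup.normalizer (Q : Set G)) c') (hE : IsBlockIdem ⊤ E)
    (ho : BrOver Q c E) (ho' : BrOver Q c' E) (hce : c * brTrunc Q d ≠ 0)
    (hce' : c' * brTrunc Q d ≠ 0) : c = c' := by
  classical
  have := Fintype.ofFinite G
  by_contra hne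
  have S := brSetting_top_normalizer hQ.2.1
  have hNn : (⊤ : Subgroup G) ≤ Subgroup.normalizer (N : Set G) :=
    (Subgroup.normalizer_eq_top_iff.mpr inferInstance).ge
  set e := brTrunc Q d with he
  have heL : IsBlockIdem (N ⊓ Subgroup.normalizer (Q : Set G)) e := hQ.trunc_isBlockIdem hd
  have hcs := hc.isSupportedOn_centralizer hQ.2.1 Subgroup.le_normalizer le_rfl
  have hecomm : ∀ {w : k[G]}, IsFixedBy w (Subgroup.normalizer (Q : Set G)) → Commute e w :=
    fun hw => commute_brTrunc_of_fixed (hw.mono (Subgroup.centralizer_le_normalizer _)) d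
  set y := c * e with hy
  obtain ⟨a, haQ, haN, hasym⟩ := exists_lift (N := N) (Q := Q) (y := y)
    (hcs.mul (isSupportedOn_brTrunc Q d))
    ((hc.1.2.mono inf_le_right).mul heL.1.2)
    (fun t ht => sylow_of_coeff_mul_brTrunc hQ hd hc.1.2 hcs ht)
  set b := a * d with hb
  have hbQ : brTrunc Q b = y := by
    rw [hb, brTrunc_mul hQ.2.1 (haN.mono hQ.1) (hd.1.2.mono hQ.1), haQ, hy, ← he, mul_assoc,
      heL.idem]
  have hbT : ∀ x : G, conjA x d = d → conjA x b = b := by
    intro x hx
    obtain ⟨h, hh, hhx, hconj⟩ := exists_mem_normalizer_conjA hd hQ (x := x)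
      (by rw [hx]; exact hQ.2.2.1)
    have hhd : conjA h⁻¹ d = d := hconj.symm.trans hx
    have hy' : conjA h⁻¹ y = y := by
      rw [hy, map_mul, isFixedBy_iff_conjA.mp hc.1.2 _ (Subgroup.inv_mem _ hh), he,
        conjA_brTrunc_of_mem_normalizer (Subgroup.inv_mem _ hh), hhd]
    have hxe : x = h⁻¹ * (h * x) := by group
    rw [hb, map_mul, hx, hxe, ← conjA_conjA,
      isFixedBy_iff_conjA.mp haN _ hhx, hasym _ hy']
  let T := conjStab d
  let F : G ⧸ T → k[G] := fun q => conjA q.out b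
  have hF : ∀ x : G, F (QuotientGroup.mk x) = conjA x b := by
    intro x
    obtain ⟨⟨t, ht⟩, hout⟩ := QuotientGroup.mk_out_eq_mul T x
    simp only [F, hout, ← conjA_conjA, hbT t (mem_conjStab.mp ht)]
  set z := ∑ q : G ⧸ T, F q with hz
  have hzC : z ∈ centerIn k ⊤ := by
    refine ⟨isSupportedOn_top z, isFixedBy_iff_conjA.mpr fun s _ => ?_⟩
    rw [hz, map_sum]
    refine Fintype.sum_equiv (MulAction.toPerm s) _ _ fun q => ?_
    obtain ⟨x, rfl⟩ := QuotientGroup.mk_surjective q
    rw [hF, conjA_conjA]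
    exact (hF (s * x)).symm
  have hzd : z * d = b := by
    rw [hz, Finset.sum_mul, Finset.sum_eq_single (QuotientGroup.mk 1 : G ⧸ T)]
    · rw [hF, conjA_one_left, hb, mul_assoc, hd.idem]
    · intro q _ hq
      obtain ⟨x, rfl⟩ := QuotientGroup.mk_surjective q
      have hx : conjA x d ≠ d := fun h => hq (by
        rw [QuotientGroup.eq, mul_one]
        exact T.inv_mem (mem_conjStab.mpr h))
      have hxd : IsBlockIdem N (conjA x d) := by
        have := hd.conjA x
        rwa [map_conj_eq_self_of_mem_normalizer (hNn (Subgroup.mem_top x))] at this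
      rw [hF, hb, map_mul, mul_assoc, hxd.orthogonal hd hx, mul_zero]
    · exact fun h => absurd (Finset.mem_univ _) h
  have hze : brTrunc Q z * e = y := by
    rw [← hbQ, ← hzd, brTrunc_mul hQ.2.1 (hzC.2.mono le_top) (hd.1.2.mono hQ.1)]
  have hw := S.trunc_mem hzC
  have hwce : brTrunc Q z * c * e = y := by
    rw [mul_assoc, (hecomm hc.1.2).eq.symm, ← mul_assoc, hze, hy, mul_assoc,
      (hecomm hc.1.2).eq, ← mul_assoc, hc.idem]
  have hyy : y * y = y := by
    rw [hy, mul_assoc, ← mul_assoc e, (hecomm hc.1.2).eq, mul_assoc c e e, heL.idem, ← mul_assoc,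
      hc.idem]
  have hs : Sees c (brTrunc Q z) := by
    intro hn
    apply hce
    refine idempotent_eq_zero_of_isNilpotent hyy ?_
    rw [← hwce]
    exact Commute.isNilpotent_mul_right (hecomm (hw.2.mul hc.1.2)).symm hn
  rw [S.sees_iff hc hE ho hzC, ← S.sees_iff hc' hE ho' hzC] at hs
  obtain ⟨w, hwC, hwe⟩ := hc'.exists_inverse hw hs
  apply hce'
  calc c' * e = w * (c' * (brTrunc Q z * e)) := by
        conv_lhs => rw [← hwe]
        rw [(commute_centerIn hw hwC).eq, mul_assoc w, (commute_centerIn hw hc'.1).eq,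
          mul_assoc w, mul_assoc c']
    _ = 0 := by rw [hze, hy, ← mul_assoc c', hc'.orthogonal hc (Ne.symm hne), zero_mul, mul_zero]

end CfsgLib.Blocks
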