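import Cfsg.Agent.Blocks.Defect.OrbitBlock
import Mathlib.GroupTheory.Index

/-!
# Stable blocks of a normal subgroup
-/

set_option autoImplicit false
open scoped MonoidAlgebra
open MonoidAlgebra (single)

namespace CfsgLib.Blocks

variable {k : Type*} [Field k] {G : Type*} [Group G] [Finite G] {p : ℕ} [Fact p.Prime] [CharP k p]

omit [Field k] in
theorem factorization_index_eq_of_normal {N P : Subgroup G} [N.Normal] :
    N.index.factorization p =
      (N.relIndex P).factorization p + (N ⊔ P).index.factorization p := by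
  have h := Subgroup.relIndex_mul_index (le_sup_left : N ≤ N ⊔ P)
  have h2 : N.relIndex (N ⊔ P) = N.relIndex P := by
    rw [sup_comm]; exact Subgroup.relIndex_sup_right (H := P) (K := N)
  rw [h2] at h
  have h0 : N.relIndex P ≠ 0 ∧ (N ⊔ P).index ≠ 0 :=
    mul_ne_zero_iff.mp (h.symm ▸ Subgroup.index_ne_zero_of_finite)
  rw [← h, Nat.factorization_mul h0.1 h0.2, Finsupp.add_apply]

omit [Field k] in
theorem card_eq_inf_mul_pow {N P : Subgroup G} (hP : IsPGroup p P) :
    Nat.card P = Nat.card (P ⊓ N : Subgroup G) * p ^ (N.relIndex P).factorization p := by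
  have h : Nat.card P = Nat.card (P ⊓ N : Subgroup G) * N.relIndex P := by
    rw [← Subgroup.inf_relIndex_left P N]
    rw [← Subgroup.relIndex_bot_left (H := P ⊓ N), ← Subgroup.relIndex_bot_left (H := P),
      Subgroup.relIndex_mul_relIndex _ _ _ bot_le inf_le_left]
  obtain ⟨n, hn⟩ := IsPGroup.iff_card.mp hP
  obtain ⟨i, -, hi⟩ := (Nat.dvd_prime_pow (Fact.out : p.Prime)).mp
    (hn ▸ h.symm ▸ dvd_mul_left (N.relIndex P) _ : N.relIndex P ∣ p ^ n)
  rw [hi, Nat.factorization_pow_self (Fact.out : p.Prime), ← hi]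
  exact h

/-- A block of a normal subgroup fixed by the whole group has in its support an element `g` whose
Sylow centralizer subgroup covers a Sylow subgroup of the quotient and meets `N` in a defect
group. -/
theorem IsBlockIdem.exists_stable_sylow [IsAlgClosed k] {N : Subgroup G} [N.Normal] {f : k[G]}
    (hf : IsBlockIdem N f) (hfix : IsFixedBy f ⊤) :
    ∃ g D, f.coeff g ≠ 0 ∧ IsSylowIn p D (Subgroup.centralizer ({g} : Set G)) ∧
      ¬ p ∣ (N ⊔ D).index ∧ IsDefectGroupIdem p N f (D ⊓ N) := by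
  classical
  have hNn : (⊤ : Subgroup G) ≤ Subgroup.normalizer (N : Set G) :=
    (Subgroup.normalizer_eq_top_iff.mpr inferInstance).ge
  obtain ⟨R⟩ := (inferInstance : Nonempty (Sylow p G))
  obtain ⟨g, hgN, hg0, hsees, hstab⟩ := hf.exists_stable_class R.isPGroup'
    (le_top.trans hNn) (hfix.mono le_top)
  set C := Subgroup.centralizer ({g} : Set G) with hC
  obtain ⟨S⟩ := (inferInstance : Nonempty (Sylow p C))
  set D := (S : Subgroup C).map C.subtype with hD
  have hDs : IsSylowIn p D C := isSylowIn_map_sylow S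
  refine ⟨g, D, hg0, hDs, ?_, ?_⟩
  · set φ := (QuotientGroup.mk' N).comp C.subtype with hφ
    have h1 : ((S : Subgroup C).map φ).index = (N ⊔ D).index := by
      rw [← Subgroup.index_comap_of_surjective ((S : Subgroup C).map φ)
        (QuotientGroup.mk'_surjective N)]
      congr 1
      rw [hφ, ← Subgroup.map_map, ← hD, Subgroup.comap_map_eq, QuotientGroup.ker_mk', sup_comm]
    rw [← h1, Subgroup.index_map]
    intro hdvd
    rcases ((Fact.out : p.Prime).dvd_mul).mp hdvd with h | h
    · exact S.not_dvd_index (h.trans (Subgroup.index_dvd_of_le le_sup_left))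
    · refine R.not_dvd_index (h.trans ((Subgroup.index_dvd_of_le ?_).trans
        (Subgroup.index_map_dvd (R : Subgroup G) (QuotientGroup.mk'_surjective N))))
      rintro _ ⟨r, hr, rfl⟩
      obtain ⟨c, hc, hcr⟩ := hstab r hr
      refine ⟨⟨c * r, hcr⟩, ?_⟩
      show (QuotientGroup.mk (c * r) : G ⧸ N) = QuotientGroup.mk r
      rw [QuotientGroup.mk_mul, (QuotientGroup.eq_one_iff c).mpr hc, one_mul]
  · obtain ⟨Q, hQ⟩ := exists_isSylowIn (p := p) (N ⊓ C)
    have hQf := hf.isDefectGroupIdem_of_class ⟨hgN, hg0, hsees⟩ hQ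
    refine hQf.of_card_le hf.1 inf_le_right (hDs.2.1.to_le inf_le_left)
      (brTrunc_ne_zero_of_coeff hg0 (inf_le_left.trans hDs.1)) ?_
    obtain ⟨t, ht, hle⟩ := hDs.2.2 Q (hQ.1.trans inf_le_right) hQ.2.1
    rw [← card_map_conj Q t]
    refine Subgroup.card_le_of_le (le_inf hle ?_)
    rintro _ ⟨q, hq, rfl⟩
    exact (inferInstance : N.Normal).conj_mem q (hQ.1 hq).1 t

/-- Some block over a stable block of a normal subgroup has defect at least the stable bound. -/
theorem IsBlockIdem.exists_block_large_defect [IsAlgClosed k] {N : Subgroup G} [N.Normal]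
    {f : k[G]} (hf : IsBlockIdem N f) (hfix : IsFixedBy f ⊤) :
    ∃ e D Q, IsBlockIdem ⊤ e ∧ e * f ≠ 0 ∧ IsDefectGroupIdem p ⊤ e D ∧
      IsDefectGroupIdem p N f Q ∧
      Nat.card Q * p ^ N.index.factorization p ≤ Nat.card D := by
  classical
  obtain ⟨g, R, hg0, hR, hidx, hQ⟩ := hf.exists_stable_sylow (p := p) hfix
  have hfT : f ∈ centerIn k ⊤ := ⟨isSupportedOn_top f, hfix⟩
  have hne : brTrunc R f ≠ 0 := brTrunc_ne_zero_of_coeff hg0 hR.1
  obtain ⟨e, he, hne'⟩ : ∃ e, IsBlockIdem ⊤ e ∧ brTrunc R (f * e) ≠ 0 := by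
    by_contra h
    simp only [not_exists, not_and, not_not] at h
    apply hne
    rw [← mul_one f, ← sum_blockIdems ⊤, Finset.mul_sum, map_sum]
    exact Finset.sum_eq_zero fun e he => h e (mem_blockIdems.mp he)
  have hfe : f * e = e := (he.2.2.2 f hfT hf.idem).resolve_left fun h => hne' (by rw [h, map_zero])
  rw [hfe] at hne'
  obtain ⟨D, hD⟩ := he.exists_defectGroup p
  obtain ⟨x, -, hx⟩ := hD.2.2.2 R le_top hR.2.1 hne'
  refine ⟨e, D, R ⊓ N, he, ?_, hD, hQ, ?_⟩
  · rw [(commute_centerIn he.1 hfT).eq, hfe]; exact he.ne_zero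
  · have hcard := Subgroup.card_le_of_le hx
    rw [card_map_conj] at hcard
    refine le_trans (le_of_eq ?_) hcard
    rw [card_eq_inf_mul_pow (N := N) hR.2.1, factorization_index_eq_of_normal (p := p) (P := R),
      Nat.factorization_eq_zero_of_not_dvd hidx, add_zero]

end CfsgLib.Blocks
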