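import Cfsg.Agent.Blocks.Defect.Translate
import Cfsg.Agent.Blocks.Orth.Blocks
import Cfsg.Agent.Transfer.AbelianSylow
import Mathlib.LinearAlgebra.Trace
import Mathlib.LinearAlgebra.Dimension.Constructions

/-!
# The blocks of a group with a normal Sylow subgroup

They correspond to the classes of `p`-regular elements centralizing the Sylow subgroup.
-/

set_option autoImplicit false

open Cfsg
open scoped MonoidAlgebra

namespace CfsgLib.Blocks

/-- A nilpotent central element of a semisimple group algebra is zero. -/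
theorem eq_zero_of_isNilpotent_central {k : Type*} [Field k] {K : Type*} [Group K] [Finite K]
    (hK : (Nat.card K : k) ≠ 0) {z : k[K]} (hc : ∀ w, Commute z w) (hn : IsNilpotent z) :
    z = 0 := by
  classical
  haveI := Fintype.ofFinite K
  haveI : Module.Finite k k[K] := Module.Finite.of_basis (MonoidAlgebra.basis K k)
  refine MonoidAlgebra.ext (Finsupp.ext fun g => ?_)
  set w := z * MonoidAlgebra.single g⁻¹ (1 : k) with hw
  have hwn : IsNilpotent (LinearMap.mulLeft k w) :=
    ((hc (MonoidAlgebra.single g⁻¹ (1 : k))).isNilpotent_mul_right hn).map (Algebra.lmul k k[K])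
  have htr := IsNilpotent.eq_zero (LinearMap.isNilpotent_trace_of_isNilpotent hwn)
  rw [LinearMap.trace_eq_matrix_trace k (MonoidAlgebra.basis K k), Matrix.trace,
    Finset.sum_congr rfl (g := fun _ => z.coeff g) fun x _ => ?_, Finset.sum_const,
    Finset.card_univ, nsmul_eq_mul, ← Nat.card_eq_fintype_card] at htr
  · exact (mul_eq_zero.1 htr).resolve_left hK
  · rw [Matrix.diag_apply, LinearMap.toMatrix_apply]
    simp [MonoidAlgebra.basis, hw, mul_assoc, MonoidAlgebra.single_mul_single,
      MonoidAlgebra.coeff_mul_single_apply]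

variable {N : Type*} [Group N] [Finite N] {p : ℕ}

/-- The `p`-regular elements centralizing a normal Sylow subgroup form a normal subgroup. -/
theorem exists_regular_centralizer [Fact p.Prime] (Q : Sylow p N) [(Q : Subgroup N).Normal] :
    ∃ T : Subgroup N, ¬ p ∣ Nat.card T ∧
      ∀ x : N, x ∈ T ↔ ¬ p ∣ orderOf x ∧ x ∈ Subgroup.centralizer ((Q : Subgroup N) : Set N) := by
  have hp : p.Prime := Fact.out
  set C := Subgroup.centralizer ((Q : Subgroup N) : Set N) with hC
  obtain ⟨R⟩ : Nonempty (Sylow p C) := inferInstance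
  have hRQ : (R : Subgroup C).map C.subtype ≤ (Q : Subgroup N) := by
    obtain ⟨S, hS⟩ := (R.2.map C.subtype).exists_le_sylow
    haveI := Sylow.unique_of_normal Q inferInstance
    rwa [Subsingleton.elim S Q] at hS
  have hcompl : Cfsg.HasNormalPComplement p C :=
    CfsgLib.Transfer.hasNormalPComplement_of_normalizer_le_centralizer R fun c _ r hr =>
      Subtype.ext (c.2 r (hRQ ⟨r, hr, rfl⟩))
  obtain ⟨K, hK, hKc, j, hj⟩ := CfsgLib.Transfer.hasNormalPComplement_iff_exists.mp hcompl
  haveI := hK
  refine ⟨K.map C.subtype, ?_, fun x => ?_⟩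
  · rw [← Nat.card_congr (K.equivMapOfInjective _ C.subtype_injective).toEquiv]
    exact CfsgLib.Transfer.not_dvd_of_coprime hKc
  · constructor
    · rintro ⟨y, hy, rfl⟩
      refine ⟨?_, y.2⟩
      rw [Subgroup.coe_subtype, Subgroup.orderOf_coe]
      exact CfsgLib.Transfer.not_dvd_of_coprime
        ((CfsgLib.Transfer.mem_iff_coprime_of_pPower_index hKc hj y).1 hy)
    · rintro ⟨hx, hxC⟩
      refine ⟨⟨x, hxC⟩, (CfsgLib.Transfer.mem_iff_coprime_of_pPower_index hKc hj _).2 ?_, rfl⟩
      rw [← Subgroup.orderOf_coe]
      exact CfsgLib.Transfer.coprime_of_not_dvd hx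

variable {M : Ideal AlgInt}

theorem blockCoeff_normal_sylow [Fact p.Prime] (hM : IsPModular p M) [M.IsMaximal]
    (Q : Sylow p N) [(Q : Subgroup N).Normal] [Fintype N] {B : Set (IrrCharacter N)}
    (hB : IsPBlock M B) {x : N}
    (hx : ¬ (¬ p ∣ orderOf x ∧ x ∈ Subgroup.centralizer ((Q : Subgroup N) : Set N))) :
    (blockIdemK hB : MonoidAlgebra (kres M) N).coeff x = 0 := by
  haveI := charP_kres hM
  rw [coeff_blockIdemK]
  by_cases h : p ∣ orderOf x
  · rw [res_eq_zero_iff]
    show MemLocalIdeal M (blockCoeff B x)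
    rw [blockCoeff_eq_zero_of_singular hM hB h]
    exact memLocalIdeal_zero
  · have h1 := (isBlockIdem_topEl (M := M) hB).isSupportedOn_centralizer Q.2 le_top
      (Subgroup.normalizer_eq_top (Q : Subgroup N) ▸ le_rfl) x fun hc => hx ⟨h, hc⟩
    rwa [coeff_topEl, redC_of_mem (memLocalRing_blockCoeff hB x)] at h1

/-- The number of blocks of a group with a normal Sylow `p`-subgroup. -/
theorem card_blocks_normal_sylow [Fact p.Prime] (hM : IsPModular p M) (Q : Sylow p N)
    [(Q : Subgroup N).Normal] :
    Nat.card {B : Set (IrrCharacter N) // IsPBlock M B} =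
      Nat.card {C : ConjClasses N // ∀ n : N, ConjClasses.mk n = C →
        ¬ p ∣ orderOf n ∧ n ∈ Subgroup.centralizer ((Q : Subgroup N) : Set N)} := by
  classical
  haveI := Fintype.ofFinite N
  haveI := hM.2.1
  haveI := charP_kres hM
  haveI := finite_irrCharacter (G := N)
  let Bl := {B : Set (IrrCharacter N) // IsPBlock M B}
  let CT := {C : ConjClasses N // ∀ n : N, ConjClasses.mk n = C →
    ¬ p ∣ orderOf n ∧ n ∈ Subgroup.centralizer ((Q : Subgroup N) : Set N)}
  haveI : Fintype Bl := Fintype.ofFinite _
  haveI : Fintype CT := Fintype.ofFinite _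
  obtain ⟨T, hTcard, hT⟩ := exists_regular_centralizer Q
  have hrep : ∀ C : ConjClasses N, ConjClasses.mk (Quotient.out C) = C := Quotient.out_eq
  have hTconj : ∀ x y : N, IsConj x y → x ∈ T → y ∈ T := by
    intro x y hxy hx
    obtain ⟨c, rfl⟩ := isConj_iff.1 hxy
    obtain ⟨h1, h2⟩ := (hT x).1 hx
    refine (hT _).2 ⟨?_, Subgroup.normal_centralizer.conj_mem x h2 c⟩
    rwa [← MulAut.conj_apply, MulEquiv.orderOf_eq]
  have hclass : ∀ x ∈ T, ∀ n : N, ConjClasses.mk n = ConjClasses.mk x →
      ¬ p ∣ orderOf n ∧ n ∈ Subgroup.centralizer ((Q : Subgroup N) : Set N) := fun x hx n hn =>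
    (hT n).1 (hTconj x n (ConjClasses.mk_eq_mk_iff_isConj.1 hn).symm hx)
  choose χ hχ using fun B : Bl => nonempty_of_isPBlock B.2
  let L : IrrCharacter N → (centerK M N →ₗ[kres M] kres M) := fun φ =>
    { toFun := omegaBar M φ
      map_add' := map_add _
      map_smul' := fun c x => by
        rw [Algebra.smul_def, map_mul, omegaBar_algebraMap]; rfl }
  let e : (Bl → kres M) →ₗ[kres M] centerK M N :=
    Fintype.linearCombination (kres M) fun B : Bl => blockIdemK B.2
  let s : (CT → kres M) →ₗ[kres M] centerK M N :=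
    Fintype.linearCombination (kres M) fun C : CT => classSumK M (Quotient.out C.1)
  let ι : (Bl → kres M) →ₗ[kres M] (CT → kres M) :=
    { toFun := fun c C => (e c : MonoidAlgebra (kres M) N).coeff (Quotient.out C.1)
      map_add' := fun c d => funext fun C => by simp
      map_smul' := fun a c => funext fun C => by simp }
  let ω : (CT → kres M) →ₗ[kres M] (Bl → kres M) :=
    { toFun := fun v B => L (χ B) (s v)
      map_add' := fun v w => funext fun B => by simp
      map_smul' := fun a v => funext fun B => by simp }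
  have hι : Function.Injective ι := by
    rw [injective_iff_map_eq_zero]
    intro c hc
    have he : e c = 0 := by
      refine Subtype.ext (MonoidAlgebra.ext (Finsupp.ext fun x => ?_))
      by_cases hx : x ∈ T
      · have h1 : (e c : MonoidAlgebra (kres M) N).coeff (Quotient.out (ConjClasses.mk x)) = 0 :=
          congrFun hc ⟨ConjClasses.mk x, hclass x hx⟩
        obtain ⟨g, hg⟩ := isConj_iff.1 (ConjClasses.mk_eq_mk_iff_isConj.1 (hrep (ConjClasses.mk x)))
        rw [← hg, coeff_conj_of_mem_center (e c).2]
        exact h1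
      · simp only [e, Fintype.linearCombination_apply, AddSubmonoidClass.coe_finset_sum,
          MonoidAlgebra.coeff_sum, Finsupp.finsetSum_apply]
        refine Finset.sum_eq_zero fun B _ => ?_
        rw [Subalgebra.coe_smul, MonoidAlgebra.coeff_smul_apply,
          blockCoeff_normal_sylow hM Q B.2 (mt (hT x).2 hx), smul_zero]
    funext B
    have h1 := congrArg (L (χ B)) he
    rw [map_zero] at h1
    simp only [e, Fintype.linearCombination_apply, map_sum, map_smul] at h1
    rw [Finset.sum_eq_single B] at h1
    · change c B • omegaBar M (χ B) (blockIdemK B.2) = 0 at h1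
      rw [omegaBar_blockIdemK, if_pos (hχ B), smul_eq_mul, mul_one] at h1
      exact h1
    · intro B' _ hne
      show c B' • omegaBar M (χ B) (blockIdemK B'.2) = 0
      rw [omegaBar_blockIdemK, if_neg, smul_zero]
      exact fun h => hne (Subtype.ext
        ((eq_blockOf_of_mem B'.2 h).trans (eq_blockOf_of_mem B.2 (hχ B)).symm))
    · simp
  have hω : Function.Injective ω := by
    rw [injective_iff_map_eq_zero]
    intro v hv
    have hall : ∀ φ : IrrCharacter N, omegaBar M φ (s v) = 0 := by
      intro φ
      have h1 : omegaBar M (χ ⟨_, φ, rfl⟩) (s v) = 0 := congrFun hv ⟨blockOf M (φ : N → ℂ), φ, rfl⟩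
      rwa [← omegaBar_eq_iff_sameBlock.2 (hχ ⟨_, φ, rfl⟩)] at h1
    have hcoeff : ∀ x : N, (s v : MonoidAlgebra (kres M) N).coeff x =
        ∑ C : CT, v C * if IsConj (Quotient.out C.1) x then 1 else 0 := by
      intro x
      simp only [s, Fintype.linearCombination_apply, AddSubmonoidClass.coe_finset_sum,
        MonoidAlgebra.coeff_sum, Finsupp.finsetSum_apply]
      refine Finset.sum_congr rfl fun C _ => ?_
      rw [Subalgebra.coe_smul, MonoidAlgebra.coeff_smul_apply, smul_eq_mul, classSumK,
        coe_centerRed, coeff_reduceHom]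
      congr 1
      split_ifs with h
      · rw [← map_one (res M)]; congr 1; exact Subtype.ext (show (classSum _).coeff x = 1 by rw [coeff_classSum, if_pos h])
      · rw [← map_zero (res M)]; congr 1; exact Subtype.ext (show (classSum _).coeff x = 0 by rw [coeff_classSum, if_neg h])
    have hsupp : IsSupportedOn (s v : MonoidAlgebra (kres M) N) (T.subtype).range := by
      intro x hx
      rw [Subgroup.range_subtype] at hx
      rw [hcoeff]
      refine Finset.sum_eq_zero fun C _ => ?_
      rw [if_neg fun hc => hx ((hT x).2 (C.2 x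
        ((ConjClasses.mk_eq_mk_iff_isConj.2 hc.symm).trans (hrep C.1)))), mul_zero]
    obtain ⟨z, hz⟩ := exists_emb_eq T.subtype_injective hsupp
    have hz0 : z = 0 := by
      refine eq_zero_of_isNilpotent_central ?_ (fun w => ?_) ?_
      · rwa [Ne, CharP.cast_eq_zero_iff (kres M) p]
      · refine emb_injective T.subtype_injective ?_
        rw [map_mul, map_mul, hz]
        exact (Subalgebra.mem_center_iff.1 (s v).2 _).symm
      · rw [← isNilpotent_emb_iff T.subtype_injective, hz]
        exact (isNilpotent_of_forall_omegaBar hall).map (centerK M N).val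
    funext C
    have h2 := hcoeff (Quotient.out C.1)
    rw [← hz, hz0, map_zero, Finset.sum_eq_single C, if_pos (IsConj.refl _), mul_one] at h2
    · simpa using h2.symm
    · intro D _ hne
      rw [if_neg, mul_zero]
      exact fun hc => hne (Subtype.ext
        ((hrep D.1).symm.trans ((ConjClasses.mk_eq_mk_iff_isConj.2 hc).trans (hrep C.1))))
    · simp
  have h1 := LinearMap.finrank_le_finrank_of_injective hι
  have h2 := LinearMap.finrank_le_finrank_of_injective hω
  rw [Module.finrank_fintype_fun_eq_card, Module.finrank_fintype_fun_eq_card] at h1 h2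
  rw [Nat.card_eq_fintype_card, Nat.card_eq_fintype_card]
  exact le_antisymm h1 h2

end CfsgLib.Blocks
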